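import Cfsg.Agent.Triality.Words

/-!
Fixed elements of the positive unipotent subgroup are products of folded root elements.
-/

set_option autoImplicit false

namespace CfsgLib.Triality

open Cfsg.Lie CfsgLib.Chevalley
open scoped Matrix

theorem vec_le_two : ∀ s < 24, ∀ m < 4, SD.vec m s ≤ 2 := by decide +kernel

/-- the sum condition on levels, decidable form -/
def LevSum (r s k i j : ℕ) : Prop :=
  (∀ m < 4, tabD4.coord 4 m k = i * tabD4.coord 4 m r + j * tabD4.coord 4 m s) → lev r < lev k ∧ lev r ≠ lev s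

instance (r s k i j : ℕ) : Decidable (LevSum r s k i j) := by unfold LevSum; infer_instance

theorem chkLev : ((List.range' 12 12).all fun r => (List.range' 12 12).all fun s =>
    (List.range 24).all fun k => (List.range' 1 2).all fun i => (List.range' 1 2).all fun j =>
      decide (LevSum r s k i j)) = true := by decide +kernel

theorem vec_sum_lev {r s k i j : ℕ} (hr : r < 24) (hr' : 12 ≤ r) (hs : s < 24) (hs' : 12 ≤ s)
    (hk : k < 24) (hi : i < 3) (hi' : 1 ≤ i) (hj : j < 3) (hj' : 1 ≤ j) : LevSum r s k i j := by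
  have h := chkLev
  simp only [List.all_eq_true, List.mem_range'_1, List.mem_range, decide_eq_true_eq] at h
  exact h r ⟨hr', hr⟩ s ⟨hs', hs⟩ k hk i ⟨hi', hi⟩ j ⟨hj', hj⟩

theorem commTerms_fibre : ∀ r < 24, ∀ s < 24, 12 ≤ r → 12 ≤ s → lev r = lev s →
    chevD4.commTerms r s = [] := by decide +kernel

theorem fibre_perm : ∀ k < 12, ((fibre k).map pR).Perm (fibre k) := by decide +kernel

theorem pR_pR_pR : ∀ r < 24, pR (pR (pR r)) = r := by decide

theorem fibre_orbit : ∀ r < 24, r = (fibre (lev r)).headD 0 ∨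
    r = pR ((fibre (lev r)).headD 0) ∨ r = pR (pR ((fibre (lev r)).headD 0)) := by decide +kernel

theorem sg_sq : ∀ r < 24, sg r * sg r = 1 := by decide

theorem eq_of_vec_sum {r s k i j : ℕ} (hr : r < 24) (hr' : 12 ≤ r) (hs : s < 24) (hs' : 12 ≤ s)
    (hk : k < 24) (hi : 1 ≤ i) (hj : 1 ≤ j)
    (h : ∀ m < 4, SD.vec m k = i * SD.vec m r + j * SD.vec m s) :
    lev r < lev k ∧ lev r ≠ lev s := by
  have bound : ∀ {a b x : ℕ}, a < 24 → 12 ≤ a → b < 24 → 12 ≤ b → 1 ≤ x → ∀ y : ℕ,
      (∀ m < 4, SD.vec m k = x * SD.vec m a + y * SD.vec m b) → x < 3 := by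
    intro a b x ha ha' hb hb' hx y hv
    obtain ⟨m, hm, hpos⟩ := SD.exists_vec_pos ha ha'
    have h1 := vec_le_two k hk m hm
    rw [hv m hm] at h1
    have h2 : (0 : ℤ) ≤ y * SD.vec m b := mul_nonneg (by omega) (SD.vec_pos b hb hb' m hm)
    have h3 : (x : ℤ) ≤ x * SD.vec m a := le_mul_of_one_le_right (by omega) (by omega)
    omega
  exact vec_sum_lev hr hr' hs hs' hk (bound hr hr' hs hs' hi j h) hi
    (bound hs hs' hr hr' hj i fun m hm => by rw [h m hm, add_comm]) hj h

theorem closed_ge (n : ℕ) : SD.Closed {r | n ≤ lev r} := by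
  intro r hr s _ hpr hps k hk i j hi hj hv
  obtain ⟨r1, r2⟩ := (SD.pos_iff r).1 hpr
  obtain ⟨s1, s2⟩ := (SD.pos_iff s).1 hps
  have := (eq_of_vec_sum (r := r) (s := s) r2 r1 s2 s1 hk hi hj hv).1
  simp only [Set.mem_ofPred_eq] at hr ⊢
  omega

theorem closed_eq (n : ℕ) : SD.Closed {r | lev r = n} := by
  intro r hr s hs hpr hps k hk i j hi hj hv
  obtain ⟨r1, r2⟩ := (SD.pos_iff r).1 hpr
  obtain ⟨s1, s2⟩ := (SD.pos_iff s).1 hps
  exact absurd (hr.trans hs.symm) (eq_of_vec_sum (r := r) (s := s) r2 r1 s2 s1 hk hi hj hv).2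

variable (F : Type*) [Field F]

/-- a product of root elements along a list of roots -/
noncomputable def rootProd (L : List ℕ) (f : ℕ → F) : GL chevD4.Idx F :=
  SD.wG F (L.map fun r => (r, f r))

theorem commute_fibre {r s : ℕ} (hr : r < 24) (hr' : 12 ≤ r) (hs : s < 24) (hs' : 12 ≤ s)
    (h : lev r = lev s) (a b : F) : Commute (SD.xG F r a) (SD.xG F s b) := by
  by_cases hrs : s = r
  · subst hrs
    show _ * _ = _ * _
    rw [SD.xG_add, SD.xG_add, add_comm]
  · have hneg : s ≠ chevD4.neg r :=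
      (by decide +kernel : ∀ r < 24, ∀ s < 24, 12 ≤ r → 12 ≤ s → s ≠ chevD4.neg r) r hr s hs hr' hs'
    have e := SD.xG_comm F (r := r) (s := s) hr hs hrs hneg a b
    rw [ChevalleyDatum.commWord, commTerms_fibre r hr s hs hr' hs' h] at e
    simp only [List.map_nil, Sys.wG, List.prod_nil, mul_one] at e
    rw [mul_assoc, inv_mul_eq_iff_eq_mul] at e
    exact e.symm


/-- The ordered product only sees the support. -/
theorem rootProd_filter (L : List ℕ) (p : ℕ → Bool) (f : ℕ → F)
    (h : ∀ r ∈ L, p r = false → f r = 0) : rootProd F L f = rootProd F (L.filter p) f := by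
  induction L with
  | nil => rfl
  | cons a L ih =>
    have h' := ih fun r hr => h r (List.mem_cons_of_mem _ hr)
    simp only [rootProd, Sys.wG, List.map_map] at h' ⊢
    rcases hb : p a with _ | _
    · simp [hb, h a List.mem_cons_self hb, SD.xG_zero, h']
    · simp [hb, h']

theorem rootProd_perm {L M : List ℕ} (h : L.Perm M) {k : ℕ} (hk : 6 ≤ k)
    (hL : ∀ r ∈ L, r < 24 ∧ lev r = k) (f : ℕ → F) : rootProd F L f = rootProd F M f := by
  simp only [rootProd, Sys.wG, List.map_map]
  refine (h.map _).prod_eq' ?_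
  rw [List.pairwise_map]
  refine List.Pairwise.imp_of_mem (R := fun _ _ => True) ?_ (List.pairwise_of_forall fun _ _ => trivial)
  intro a b ha hb _
  obtain ⟨a1, a2⟩ := hL a ha
  obtain ⟨b1, b2⟩ := hL b hb
  exact commute_fibre F a1 ((lev_pos_iff a a1).2 (by omega)) b1
    ((lev_pos_iff b b1).2 (by omega)) (a2.trans b2.symm) _ _

theorem range_filter_fibre : ∀ k < 12, 6 ≤ k →
    (List.range' 12 12).filter (fun r => lev r == k) = fibre k := by decide

/-- An ordered product supported on one level. -/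
theorem ordProd_fibre {k : ℕ} (hk : k < 12) (hk6 : 6 ≤ k) (t : ℕ → F)
    (ht : ∀ r, 12 ≤ r → r < 24 → lev r ≠ k → t r = 0) :
    SD.ordProd F t 12 = rootProd F (fibre k) t := by
  rw [← range_filter_fibre k hk hk6]
  refine rootProd_filter F (List.range' 12 12) (fun r => lev r == k) t fun r hr h => ?_
  rw [List.mem_range'_1] at hr
  exact ht r hr.1 hr.2 (by simpa using h)

/-- A fixed element of one level is a folded root element. -/
theorem fixed_level {k : ℕ} (hk : k < 12) (hk6 : 6 ≤ k) {y : GL chevD4.Idx F}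
    (hy : y ∈ uSub chevD4 F {r | lev r = k}) (hfix : cj F y = y) : ∃ a : F, y = xF F k a := by
  obtain ⟨t, ht, rfl⟩ := SD.exists_ordProd_half F (closed_eq k) hy
  have ht0 : ∀ r, 12 ≤ r → r < 24 → lev r ≠ k → t r = 0 := fun r _ _ hne => by
    by_contra h0
    exact hne (ht r h0).1
  change cj F (SD.ordProd F t 12) = SD.ordProd F t 12 at hfix
  show ∃ a : F, SD.ordProd F t 12 = xF F k a
  rw [ordProd_fibre F hk hk6 t ht0] at hfix ⊢
  let t' : ℕ → F := fun r => (eR (pR (pR r)) : F) * t (pR (pR r))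
  have hc : cj F (rootProd F (fibre k) t) = rootProd F (fibre k) t' := by
    rw [← rootProd_perm F (fibre_perm k hk) hk6 (fun r hr => ?_) t']
    · simp only [rootProd, Sys.wG, map_list_prod, List.map_map]
      congr 1
      refine List.map_congr_left fun r hr => ?_
      have hr' := (mem_fibre.1 hr).1
      simp only [Function.comp_apply, t']
      rw [cj_xG F hr', pR_pR_pR r hr']
    · obtain ⟨s, hs, rfl⟩ := List.mem_map.1 hr
      obtain ⟨hs1, hs2⟩ := mem_fibre.1 hs
      exact ⟨symT.p_lt s hs1, (lev_pR s hs1).trans hs2⟩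
  rw [hc] at hfix
  let cut : (ℕ → F) → ℕ → F := fun f r => if lev r = k then f r else 0
  have hcut : ∀ f : ℕ → F, SD.ordProd F (cut f) 12 = rootProd F (fibre k) f := by
    intro f
    rw [ordProd_fibre F hk hk6 (cut f) fun r _ _ h => if_neg h]
    simp only [rootProd, Sys.wG, List.map_map]
    congr 1
    refine List.map_congr_left fun r hr => ?_
    simp [cut, (mem_fibre.1 hr).2]
  rw [← hcut t', ← hcut t] at hfix
  have hstep : ∀ r < 24, lev r = k → t (pR r) = (eR r : F) * t r := by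
    intro r hr hl
    have h1 := symT.p_lt r hr
    have hl' : lev (pR r) = k := (lev_pR r hr).trans hl
    have h := SD.ordProd_inj_half F (r := pR r) hfix
      ((pR_pos_iff r hr).2 ((lev_pos_iff r hr).2 (by omega))) h1
    simp only [cut, if_pos hl', t', pR_pR_pR r hr] at h
    exact h.symm
  set h0 := (fibre k).headD 0
  have hh0 : h0 < 24 ∧ lev h0 = k :=
    (by decide : ∀ k < 12, (fibre k).headD 0 < 24 ∧ lev ((fibre k).headD 0) = k) k hk
  refine ⟨(sg h0 : F) * t h0, ?_⟩
  simp only [rootProd, xF]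
  congr 1
  refine List.map_congr_left fun r hr => ?_
  obtain ⟨hr1, hr2⟩ := mem_fibre.1 hr
  congr 1
  have hsq : (sg h0 : F) * (sg h0 : F) = 1 := by
    rw [← Int.cast_mul, sg_sq h0 hh0.1, Int.cast_one]
  have horb := fibre_orbit r hr1
  rw [hr2] at horb
  have h1 := symT.p_lt h0 hh0.1
  rcases horb with rfl | rfl | rfl
  · rw [← mul_assoc, hsq, one_mul]
  · rw [hstep h0 hh0.1 hh0.2, sg_pR h0 hh0.1, Int.cast_mul]
    linear_combination -((eR h0 : F) * t h0) * hsq
  · rw [hstep _ h1 ((lev_pR h0 hh0.1).trans hh0.2), hstep h0 hh0.1 hh0.2, sg_pR _ h1,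
      sg_pR h0 hh0.1, Int.cast_mul, Int.cast_mul]
    linear_combination -((eR (pR h0) : F) * (eR h0 : F) * t h0) * hsq

/-- Peeling one level. -/
theorem fixed_split {k : ℕ} (hk : k < 12) (hk6 : 6 ≤ k) {v : GL chevD4.Idx F}
    (hv : v ∈ uSub chevD4 F {r | k ≤ lev r}) (hfix : cj F v = v) :
    ∃ a : F, ∃ z ∈ uSub chevD4 F {r | k + 1 ≤ lev r}, cj F z = z ∧ v = xF F k a * z := by
  have hun : ({r | k ≤ lev r} : Set ℕ) = {r | lev r = k} ∪ {r | k + 1 ≤ lev r} := by
    ext r
    simp only [Set.mem_ofPred_eq, Set.mem_union]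
    omega
  rw [hun] at hv
  obtain ⟨y, hy, z, hz, rfl⟩ := SD.uSub_union_mul F (closed_eq k) (closed_ge (k + 1))
    (hun ▸ closed_ge k) hv
  have hy' : cj F y ∈ uSub chevD4 F {r | lev r = k} :=
    mem_cj_uSub F (P := {r | lev r = k}) (fun r hr h => (lev_pR r h).trans hr) hy
  have hz' : cj F z ∈ uSub chevD4 F {r | k + 1 ≤ lev r} :=
    mem_cj_uSub F (P := {r | k + 1 ≤ lev r})
      (fun r hr h => show k + 1 ≤ lev (pR r) from (lev_pR r h).symm ▸ hr) hz
  have hbot : ∀ x, x ∈ uSub chevD4 F {r | lev r = k} → x ∈ uSub chevD4 F {r | k + 1 ≤ lev r} →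
      x = 1 := by
    intro x h1 h2
    have h : x ∈ uSub chevD4 F {r | lev r = k} ⊓ uSub chevD4 F {r | k + 1 ≤ lev r} := ⟨h1, h2⟩
    rw [SD.uSub_inf F (closed_eq k) (closed_ge (k + 1)), uSub_empty_of (fun r hr _ => ?_),
      Subgroup.mem_bot] at h
    · exact h
    · have : lev r = k ∧ k + 1 ≤ lev r := hr
      omega
  rw [map_mul] at hfix
  have e : y⁻¹ * cj F y = z * (cj F z)⁻¹ := by
    rw [inv_mul_eq_iff_eq_mul, ← mul_assoc, eq_mul_inv_iff_mul_eq, hfix]
  have h1 := hbot _ (mul_mem (inv_mem hy) hy') (e ▸ mul_mem hz (inv_mem hz'))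
  have hyf : cj F y = y := (inv_mul_eq_one.1 h1).symm
  rw [hyf] at hfix
  obtain ⟨a, rfl⟩ := fixed_level F hk hk6 hy hyf
  exact ⟨a, z, hz, mul_left_cancel hfix, rfl⟩

/-- The product of the folded root elements from level `m` on. -/
noncomputable def foldProd (a : ℕ → F) (m : ℕ) : GL chevD4.Idx F :=
  ((List.range' m (12 - m)).map fun k => xF F k (a k)).prod

theorem foldProd_mem (a : ℕ → F) (m : ℕ) : foldProd F a m ∈ cenP F :=
  Subgroup.list_prod_mem _ fun g hg => by
    obtain ⟨k, hk, rfl⟩ := List.mem_map.1 hg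
    rw [List.mem_range'_1] at hk
    exact xF_mem_cenP F (by omega) _

theorem fixed_uni_aux (d : ℕ) : ∀ m, 6 ≤ m → 12 - m ≤ d → ∀ v ∈ uSub chevD4 F {r | m ≤ lev r},
    cj F v = v → ∃ a : ℕ → F, v = foldProd F a m := by
  induction d with
  | zero =>
    intro m hm hd v hv _
    rw [uSub_empty_of fun r hr hp => ?_, Subgroup.mem_bot] at hv
    · exact ⟨0, by rw [hv, foldProd, show 12 - m = 0 by omega]; rfl⟩
    · have h1 : m ≤ lev r := hr
      have := lev_lt r ((SD.pos_iff r).1 hp).2
      omega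
  | succ d ih =>
    intro m hm hd v hv hfix
    rcases lt_or_ge m 12 with hm12 | hm12
    swap
    · exact ih m hm (by omega) v hv hfix
    obtain ⟨b, z, hz, hzf, rfl⟩ := fixed_split F hm12 hm hv hfix
    obtain ⟨a, rfl⟩ := ih (m + 1) (by omega) (by omega) z hz hzf
    refine ⟨Function.update a m b, ?_⟩
    conv_rhs => rw [foldProd, show 12 - m = (12 - (m + 1)) + 1 by omega, List.range'_succ,
      List.map_cons, List.prod_cons, Function.update_self]
    rw [foldProd]
    congr 2
    refine List.map_congr_left fun k hk => ?_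
    rw [List.mem_range'_1] at hk
    rw [Function.update_of_ne (by omega)]

/-- A fixed positive unipotent element is a product of folded root elements. -/
theorem fixed_uni {v : GL chevD4.Idx F} (hv : v ∈ chevD4.posUnipotent F) (hfix : cj F v = v) :
    ∃ a : ℕ → F, v = foldProd F a 6 := by
  refine fixed_uni_aux F _ 6 le_rfl le_rfl v ?_ hfix
  rw [← uSub_univ] at hv
  refine SD.uSub_le F (fun r _ h1 h2 t => ?_) hv
  exact SD.xG_mem_uSub F (P := {r | 6 ≤ lev r}) ((lev_pos_iff r h2).1 h1) h1 h2 t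

theorem rho_foldProd (a : ℕ → F) (h : foldProd F a 6 ∈ cenP F) :
    rho F ⟨foldProd F a 6, h⟩ = SG.ordProd F a 6 := by
  have e : (⟨foldProd F a 6, h⟩ : ↥(cenP F)) =
      ((List.range' 6 6).map fun k => if hk : k < 12 then xC F ⟨k, hk⟩ (a k) else 1).prod := by
    refine Subtype.ext ?_
    rw [← Subgroup.coe_subtype, map_list_prod, List.map_map]
    show foldProd F a 6 = _
    rw [foldProd]
    refine congrArg List.prod (List.map_congr_left fun k hk => ?_)
    rw [List.mem_range'_1] at hk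
    simp [show k < 12 by omega, xC]
  rw [e, map_list_prod, Sys.ordProd, Sys.wG, List.map_map, List.map_map]
  congr 1
  refine List.map_congr_left fun k hk => ?_
  rw [List.mem_range'_1] at hk
  simp [show k < 12 by omega, rho_xC]

end CfsgLib.Triality
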