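import Cfsg.Agent.Triality.Main
import Cfsg.Agent.ChevField.Gen

/-!
A graph automorphism of order three of the group of type D4 agrees, up to inversion, with conjugation
by the triality matrix.
-/

set_option autoImplicit false

namespace CfsgLib.Triality

open Cfsg.Lie CfsgLib.Chevalley
open scoped Matrix

/-- the node 3-cycle -/
def piA : Equiv.Perm (Fin chevD4.rank) where
  toFun := qF
  invFun i := qF (qF i)
  left_inv := by decide
  right_inv := by decide

theorem sym_cases : ∀ π : Equiv.Perm (Fin chevD4.rank),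
    (∀ i j : Fin chevD4.rank, i ≠ j → chevD4.bonds (π i) (π j) = chevD4.bonds i j) →
      (∃ i, π (π i) ≠ i) → (∀ i, π i = piA i) ∨ (∀ i, π (π i) = piA i) := by decide +kernel

theorem graphExp_one : ∀ i < 4, ∀ j < 4, chevD4.isLong (chevD4.simple j) = false ∧
    chevD4.isLong (chevD4.simple i) = false := by decide +kernel

variable (F : Type*) [Field F]

/-- Agreement with the triality on the fundamental root elements and their negatives suffices. -/
theorem agree_of_simple (σ : MulAut ↥(chevD4.group F))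
    (h : ∀ (i : Fin chevD4.rank) (t : F) (g : ↥(chevD4.group F)),
      ((g : GL chevD4.Idx F) = SD.xG F (chevD4.simple i) t →
        (σ g : GL chevD4.Idx F) = SD.xG F (chevD4.simple (qF i)) t) ∧
      ((g : GL chevD4.Idx F) = SD.xG F (chevD4.neg (chevD4.simple i)) t →
        (σ g : GL chevD4.Idx F) = SD.xG F (chevD4.neg (chevD4.simple (qF i))) t)) :
    ∀ g : ↥(chevD4.group F), (σ g : GL chevD4.Idx F) = cj F g := by
  intro g
  obtain ⟨g, hg⟩ := g
  have h1 : ∀ j < 4, pR (chevD4.simple j) = chevD4.simple (qN j) ∧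
      pR (chevD4.neg (chevD4.simple j)) = chevD4.neg (chevD4.simple (qN j)) ∧
      eR (chevD4.simple j) = 1 ∧ eR (chevD4.neg (chevD4.simple j)) = 1 := by decide +kernel
  have hg' := hg
  rw [ChevField.group_eq_simple SD] at hg'
  induction hg' using Subgroup.closure_induction with
  | mem x hx =>
    obtain ⟨i, hi, t, e⟩ := hx
    obtain ⟨a, b, c, d⟩ := h1 i hi
    have hl : chevD4.simple i < 24 := SD.wf.simple_lt i hi
    rcases e with rfl | rfl
    · rw [(h ⟨i, hi⟩ t _).1 rfl, cj_xG F hl, a, c, Int.cast_one, one_mul]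
      rfl
    · rw [(h ⟨i, hi⟩ t _).2 rfl,
        cj_xG F (show chevD4.neg (chevD4.simple i) < 24 from SD.wf.neg_lt _ hl), b, d,
        Int.cast_one, one_mul]
      rfl
  | one =>
    rw [show (⟨1, hg⟩ : ↥(chevD4.group F)) = 1 from rfl, map_one, OneMemClass.coe_one, map_one]
  | mul x y hx hy ihx ihy =>
    have hx' : x ∈ chevD4.group F := by rw [ChevField.group_eq_simple SD]; exact hx
    have hy' : y ∈ chevD4.group F := by rw [ChevField.group_eq_simple SD]; exact hy
    rw [show (⟨x * y, hg⟩ : ↥(chevD4.group F)) = ⟨x, hx'⟩ * ⟨y, hy'⟩ from rfl, map_mul,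
      Subgroup.coe_mul, ihx hx', ihy hy', Subgroup.coe_mul, map_mul]
  | inv x hx ihx =>
    have hx' : x ∈ chevD4.group F := by rw [ChevField.group_eq_simple SD]; exact hx
    rw [show (⟨x⁻¹, hg⟩ : ↥(chevD4.group F)) = ⟨x, hx'⟩⁻¹ from rfl, map_inv, Subgroup.coe_inv,
      ihx hx', Subgroup.coe_inv, map_inv]

/-- The fixed points of a graph automorphism of order three are centralized by the triality. -/
theorem fixed_iff (τ : MulAut ↥(chevD4.group F)) (hτ : chevD4.IsGraphAut τ) (h3 : orderOf τ = 3)
    (g : ↥(chevD4.group F)) : τ g = g ↔ (g : GL chevD4.Idx F) ∈ cenP F := by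
  obtain ⟨π, hπ, hgen⟩ := hτ
  have hexp : ∀ i : Fin chevD4.rank, chevD4.graphExp (ringChar F) i (π i) = 1 := by
    intro i
    simp [ChevalleyDatum.graphExp, (graphExp_one i i.isLt (π i) (π i).isLt).1]
  have hgen' : ∀ (i : Fin chevD4.rank) (t : F) (g : ↥(chevD4.group F)),
      ((g : GL chevD4.Idx F) = SD.xG F (chevD4.simple i) t →
        (τ g : GL chevD4.Idx F) = SD.xG F (chevD4.simple (π i)) t) ∧
      ((g : GL chevD4.Idx F) = SD.xG F (chevD4.neg (chevD4.simple i)) t →
        (τ g : GL chevD4.Idx F) = SD.xG F (chevD4.neg (chevD4.simple (π i))) t) := by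
    intro i t g
    have h := hgen g i t
    rw [hexp i, pow_one] at h
    exact ⟨fun e => SD.eq_xG F (h.1 (by rw [e, SD.xG_val])),
      fun e => SD.eq_xG F (h.2 (by rw [e, SD.xG_val]))⟩
  have hgen2 : ∀ (i : Fin chevD4.rank) (t : F) (g : ↥(chevD4.group F)),
      ((g : GL chevD4.Idx F) = SD.xG F (chevD4.simple i) t →
        ((τ * τ) g : GL chevD4.Idx F) = SD.xG F (chevD4.simple (π (π i))) t) ∧
      ((g : GL chevD4.Idx F) = SD.xG F (chevD4.neg (chevD4.simple i)) t →
        ((τ * τ) g : GL chevD4.Idx F) = SD.xG F (chevD4.neg (chevD4.simple (π (π i)))) t) :=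
    fun i t g => ⟨fun e => (hgen' (π i) t (τ g)).1 ((hgen' i t g).1 e),
      fun e => (hgen' (π i) t (τ g)).2 ((hgen' i t g).2 e)⟩
  have h33 : τ * τ * τ = 1 := by rw [← pow_three', ← h3, pow_orderOf_eq_one]
  have hne : ∃ i, π (π i) ≠ i := by
    by_contra hc
    push Not at hc
    have h2 : τ * τ = 1 := by
      refine MulEquiv.ext fun x => Subtype.ext ?_
      obtain ⟨x, hx⟩ := x
      have hx' := hx
      rw [ChevField.group_eq_simple SD] at hx'
      induction hx' using Subgroup.closure_induction with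
      | mem y hy =>
        obtain ⟨i, hi, t, e⟩ := hy
        rcases e with rfl | rfl
        · rw [(hgen2 ⟨i, hi⟩ t _).1 rfl, hc]
          rfl
        · rw [(hgen2 ⟨i, hi⟩ t _).2 rfl, hc]
          rfl
      | one =>
        rw [show (⟨1, hx⟩ : ↥(chevD4.group F)) = 1 from rfl, map_one]
        rfl
      | mul y z hy hz ihy ihz =>
        have hy' : y ∈ chevD4.group F := by rw [ChevField.group_eq_simple SD]; exact hy
        have hz' : z ∈ chevD4.group F := by rw [ChevField.group_eq_simple SD]; exact hz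
        rw [show (⟨y * z, hx⟩ : ↥(chevD4.group F)) = ⟨y, hy'⟩ * ⟨z, hz'⟩ from rfl, map_mul,
          Subgroup.coe_mul, ihy hy', ihz hz']
        rfl
      | inv y hy ihy =>
        have hy' : y ∈ chevD4.group F := by rw [ChevField.group_eq_simple SD]; exact hy
        rw [show (⟨y⁻¹, hx⟩ : ↥(chevD4.group F)) = ⟨y, hy'⟩⁻¹ from rfl, map_inv, Subgroup.coe_inv,
          ihy hy']
        rfl
    have h1 : τ = 1 := by
      have := h33
      rwa [h2, one_mul] at this
    rw [h1, orderOf_one] at h3
    omega
  rcases sym_cases π hπ hne with hA | hA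
  · have hag := agree_of_simple F τ (fun i t g => by
      have := hgen' i t g
      rwa [show π i = qF i from hA i] at this) g
    rw [mem_cenP_iff_cj, ← hag, SetLike.coe_eq_coe]
  · have hag := agree_of_simple F (τ * τ) (fun i t g => by
      have := hgen2 i t g
      rwa [show π (π i) = qF i from hA i] at this) g
    rw [mem_cenP_iff_cj, ← hag, SetLike.coe_eq_coe]
    constructor
    · intro e
      rw [MulAut.mul_apply, e, e]
    · intro e
      have : (τ * τ * τ) g = g := by rw [h33]; rfl
      rw [mul_assoc, MulAut.mul_apply, e] at this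
      exact this

end CfsgLib.Triality
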