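import Cfsg.Agent.Triality.Weyl

/-!
The centralizer of the triality matrix in the group of type D4 is isomorphic to the group of type G2.
-/

set_option autoImplicit false

namespace CfsgLib.Triality

open Cfsg.Lie CfsgLib.Chevalley
open scoped Matrix

/-- the node permutation -/
def qF (i : Fin chevD4.rank) : Fin chevD4.rank := ⟨qN i, symT.q_lt i i.isLt⟩

theorem cartan_fold : ∀ r < 24,
    chevD4.cartan 0 r + chevD4.cartan 2 r + chevD4.cartan 3 r = chevG2.cartan 0 (lev r) ∧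
      chevD4.cartan 1 r = chevG2.cartan 1 (lev r) := by decide +kernel

variable (F : Type*) [Field F]

theorem cj_nG (i : Fin chevD4.rank) :
    cj F (SD.nG F (chevD4.simple i) 1) = SD.nG F (chevD4.simple (qF i)) 1 := by
  have h1 : ∀ j < 4, pR (chevD4.simple j) = chevD4.simple (qN j) ∧
      pR (chevD4.neg (chevD4.simple j)) = chevD4.neg (chevD4.simple (qN j)) ∧
      eR (chevD4.simple j) = 1 ∧ eR (chevD4.neg (chevD4.simple j)) = 1 := by decide +kernel
  obtain ⟨a, b, c, d⟩ := h1 i i.isLt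
  have hl := SD.wf.simple_lt i i.isLt
  rw [SD.nG_eq, SD.nG_eq, map_mul, map_mul, cj_xG F (show chevD4.simple i < 24 from hl),
    cj_xG F (show chevD4.neg (chevD4.simple i) < 24 from SD.wf.neg_lt _ hl), a, b, c, d,
    Int.cast_one, one_mul, one_mul]
  rfl

theorem cj_wN (L : List (Fin chevD4.rank)) :
    cj F (SD.wN F L : GL chevD4.Idx F) = (SD.wN F (L.map qF) : GL chevD4.Idx F) := by
  induction L with
  | nil => simp [Sys.wN]
  | cons i L ih =>
    rw [SD.wN_cons, List.map_cons, SD.wN_cons, Subgroup.coe_mul, Subgroup.coe_mul, map_mul, ih]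
    simp [Sys.nN, cj_nG]

theorem wperm_map (L : List (Fin chevD4.rank)) :
    SD.wperm (L.map qF) * pP = pP * SD.wperm L := by
  induction L with
  | nil => simp [Sys.wperm]
  | cons i L ih =>
    rw [List.map_cons, SD.wperm_cons, SD.wperm_cons, mul_assoc, ih, ← mul_assoc, ← mul_assoc,
      pP_srefl]
    rfl

/-- the transported torus parameter -/
def torShift (c : ℕ → Fˣ) (j : ℕ) : Fˣ := c (qN (qN j))

theorem torusVal_shift (c : ℕ → Fˣ) {s : ℕ} (hs : s < 24) :
    torusVal chevD4 (torShift F c) (pR s) = torusVal chevD4 c s := by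
  have h : ∀ j < 4, chevD4.cartan (qN j) (pR s) = chevD4.cartan j s := fun j hj =>
    symT.cartan j hj s hs
  have e0 := h 0 (by norm_num)
  have e1 := h 1 (by norm_num)
  have e2 := h 2 (by norm_num)
  have e3 := h 3 (by norm_num)
  rw [show qN 0 = 2 from rfl] at e0
  rw [show qN 1 = 1 from rfl] at e1
  rw [show qN 2 = 3 from rfl] at e2
  rw [show qN 3 = 0 from rfl] at e3
  simp only [torusVal, show chevD4.rank = 4 from rfl, Finset.prod_range_succ, Finset.prod_range_zero,
    one_mul, torShift, e0, e1, e2, e3]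
  rw [show qN (qN 0) = 3 from rfl, show qN (qN 1) = 1 from rfl, show qN (qN 2) = 0 from rfl,
    show qN (qN 3) = 2 from rfl]
  ac_rfl

theorem cj_tor (c : ℕ → Fˣ) : cj F (tor chevD4 F c) = tor chevD4 F (torShift F c) := by
  rw [cj_apply, mul_inv_eq_iff_eq_mul]
  refine Units.ext ?_
  rw [Units.val_mul, Units.val_mul, triP_val, SD.tor_val, SD.tor_val]
  refine ext_bv chevD4 F fun x hx => ?_
  rw [← Matrix.mulVec_mulVec, ← Matrix.mulVec_mulVec]
  rcases lt_or_ge x chevD4.rank with hxl | hxl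
  · rw [dg_bvh _ hxl, symT.symMat_h F hxl, dg_bvh _ (symT.q_lt x hxl)]
  · obtain ⟨s, rfl⟩ := Nat.exists_eq_add_of_le hxl
    have hs : s < chevD4.nroots := by omega
    rw [dg_bve _ hs, Matrix.mulVec_smul, symT.symMat_e F hs, Matrix.mulVec_smul,
      dg_bve _ (symT.p_lt s hs), torusVal_shift F c hs, smul_smul, smul_smul, mul_comm]

theorem tor_mem_diagonal (c : ℕ → Fˣ) : tor chevD4 F c ∈ chevD4.diagonalSubgroup F := by
  rw [SD.diagonal_eq]; exact ⟨c, rfl⟩

theorem cj_borel {b : GL chevD4.Idx F} (hb : b ∈ chevD4.borelSubgroup F) :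
    cj F b ∈ chevD4.borelSubgroup F := by
  obtain ⟨v, hv, c, rfl⟩ := (SD.mem_borel F).mp hb
  rw [map_mul, cj_tor]
  exact mul_mem (Subgroup.mem_sup_left (cj_posUnipotent F hv))
    (Subgroup.mem_sup_right (tor_mem_diagonal F _))

/-- A fixed element of the group in normal form with fixed parts. -/
theorem exists_fixed_form {g : GL chevD4.Idx F} (hg : g ∈ chevD4.group F) (hfix : cj F g = g) :
    ∃ n n2, IsRep F n n2 ∧ ∃ b ∈ chevD4.borelSubgroup F, cj F b = b ∧
      ∃ u ∈ uSub chevD4 F (SD.flipSet F n), cj F u = u ∧ g = b * (n : GL chevD4.Idx F) * u := by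
  obtain ⟨b0, hb0, nn, u, hu, rfl⟩ := SD.normal_form_exists F hg
  obtain ⟨L, h, hh, hnn⟩ := SD.exists_wN F nn
  have hh' : (h : GL chevD4.Idx F) ∈ chevD4.diagonalSubgroup F := hh
  obtain ⟨d, hd⟩ : ∃ d, tor chevD4 F d = (h : GL chevD4.Idx F) := by
    rwa [SD.diagonal_eq, MonoidHom.mem_range] at hh'
  let h1 : ↥(chevD4.monomialSubgroup F) :=
    ⟨tor chevD4 F (torShift F d), (le_sup_left : chevD4.diagonalSubgroup F ≤
      chevD4.monomialSubgroup F) (tor_mem_diagonal F _)⟩
  have hh1 : h1 ∈ hSub chevD4 F := tor_mem_diagonal F _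
  have hperm : SD.perm F nn = SD.wperm L := by
    rw [hnn, map_mul, SD.perm_of_mem_hSub F hh, mul_one, SD.perm_wN]
  let nn' : ↥(chevD4.monomialSubgroup F) := SD.wN F (L.map qF) * h1
  have hcn : cj F (nn : GL chevD4.Idx F) = (nn' : GL chevD4.Idx F) := by
    rw [hnn, Subgroup.coe_mul, map_mul, cj_wN, ← hd, cj_tor]
    rfl
  have hu' : u ∈ chevD4.borelSubgroup F := Subgroup.mem_sup_left (uSub_le_posUnipotent F _ hu)
  have hfix' := hfix
  rw [map_mul, map_mul, hcn] at hfix'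
  have hdiag := SD.bruhat_unique F hb0 hu' (cj_borel F hb0) (cj_borel F hu') nn.2 nn'.2 hfix'.symm
  have hmem : nn⁻¹ * nn' ∈ hSub chevD4 F := hdiag
  have hperm' : SD.perm F nn' = SD.perm F nn :=
    (inv_mul_eq_one.1 (by rw [← map_inv, ← map_mul]; exact SD.perm_of_mem_hSub F hmem :
      (SD.perm F nn)⁻¹ * SD.perm F nn' = 1)).symm
  have hcomm : pP * SD.wperm L = SD.wperm L * pP := by
    rw [← wperm_map, ← hperm, ← hperm', show SD.perm F nn' = SD.wperm (L.map qF) by
      rw [map_mul, SD.perm_of_mem_hSub F hh1, mul_one, SD.perm_wN]]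
  obtain ⟨n, n2, hn, hnp⟩ := exists_rep F _ L le_rfl hcomm
  have hker : n⁻¹ * nn ∈ hSub chevD4 F := by
    rw [← SD.ker_perm F, MonoidHom.mem_ker, map_mul, map_inv, hnp, hperm, inv_mul_cancel]
  have hconj : (n : GL chevD4.Idx F) * ((n⁻¹ * nn : ↥(chevD4.monomialSubgroup F)) : GL chevD4.Idx F) *
      (n : GL chevD4.Idx F)⁻¹ ∈ chevD4.diagonalSubgroup F :=
    (Subgroup.mem_normalizer_iff.mp (SD.monomial_le_normalizer F n.2) _).mp hker
  set b := b0 * ((n : GL chevD4.Idx F) * ((n⁻¹ * nn : ↥(chevD4.monomialSubgroup F)) :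
    GL chevD4.Idx F) * (n : GL chevD4.Idx F)⁻¹) with hbdef
  have hb : b ∈ chevD4.borelSubgroup F := mul_mem hb0 (Subgroup.mem_sup_right hconj)
  have hg' : b0 * (nn : GL chevD4.Idx F) * u = b * (n : GL chevD4.Idx F) * u := by
    rw [hbdef, Subgroup.coe_mul, Subgroup.coe_inv]
    group
  have hflip : SD.flipSet F n = SD.flipSet F nn := by simp [Sys.flipSet, hnp, hperm]
  rw [← hflip] at hu
  have hinv : ∀ r ∈ SD.flipSet F n, r < 24 → pR r ∈ SD.flipSet F n := by
    rintro r ⟨hr, hr1⟩ hr24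
    refine ⟨symT.p_lt r hr, ?_⟩
    rw [hnp] at hr1 ⊢
    have e : (⟨pR r, symT.p_lt r hr⟩ : Fin chevD4.nroots) = pP ⟨r, hr⟩ :=
      Fin.ext (pP_val ⟨r, hr⟩).symm
    rw [e, ← Equiv.Perm.mul_apply, ← hcomm, Equiv.Perm.mul_apply, pP_val]
    have := pR_pos_iff _ (Fin.isLt (SD.wperm L ⟨r, hr⟩))
    simp only [show chevD4.nroots / 2 = 12 from rfl] at hr1 ⊢
    omega
  have hneg : ∀ z ∈ uSub chevD4 F (SD.flipSet F n),
      (n : GL chevD4.Idx F) * z * (n : GL chevD4.Idx F)⁻¹ ∈ chevD4.negUnipotent F := by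
    intro z hz
    refine closure_conj_mem ?_ hz
    rintro y ⟨r, t, ⟨⟨hr, hr1⟩, -⟩, hy⟩
    obtain ⟨c', -, hct⟩ := SD.conj_root F n ⟨r, hr⟩
    rw [SD.eq_xG F hy,
      show SD.xG F r t = SD.xG F (⟨r, hr⟩ : Fin chevD4.nroots) t from rfl, (hct t).1]
    exact SD.xG_mem_negUnipotent F hr1 _
  have hnfix : cj F (n : GL chevD4.Idx F) = n := (mem_cenP_iff_cj F).1 hn.choose
  rw [hg'] at hfix ⊢
  rw [map_mul, map_mul, hnfix] at hfix
  obtain ⟨e1, e2⟩ := SD.normal_form_unique F (cj_borel F hb) hb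
    (hneg _ (mem_cj_uSub F hinv hu)) (hneg _ hu) hfix
  exact ⟨n, n2, hn, b, hb, e1, u, hu, e2, rfl⟩

theorem cj_borel_parts {v : GL chevD4.Idx F} (hv : v ∈ chevD4.posUnipotent F) (c : ℕ → Fˣ)
    (hfix : cj F (v * tor chevD4 F c) = v * tor chevD4 F c) :
    cj F v = v ∧ cj F (tor chevD4 F c) = tor chevD4 F c := by
  rw [map_mul] at hfix
  have e : v⁻¹ * cj F v = tor chevD4 F c * (cj F (tor chevD4 F c))⁻¹ := by
    rw [inv_mul_eq_iff_eq_mul, ← mul_assoc, eq_mul_inv_iff_mul_eq, hfix]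
  have hmem : v⁻¹ * cj F v ∈ chevD4.posUnipotent F ⊓ chevD4.diagonalSubgroup F :=
    Subgroup.mem_inf.2 ⟨mul_mem (inv_mem hv) (cj_posUnipotent F hv), by
      rw [e, cj_tor]
      exact mul_mem (tor_mem_diagonal F c) (inv_mem (tor_mem_diagonal F _))⟩
  rw [SD.posUnipotent_inf_diagonal F, Subgroup.mem_bot] at hmem
  have hv' : cj F v = v := (inv_mul_eq_one.1 hmem).symm
  exact ⟨hv', by rwa [hv', mul_right_inj] at hfix⟩

/-- folded torus parameters -/
def fc (γ δ : Fˣ) (j : ℕ) : Fˣ := if j = 1 then δ else γ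

theorem torusVal_fc (γ δ : Fˣ) {r : ℕ} (hr : r < 24) :
    torusVal chevD4 (fc F γ δ) r = torusVal chevG2 (fc F γ δ) (lev r) := by
  obtain ⟨h0, h1⟩ := cartan_fold r hr
  simp only [torusVal, show chevD4.rank = 4 from rfl, show chevG2.rank = 2 from rfl,
    Finset.prod_range_succ, Finset.prod_range_zero, one_mul, fc, ← h0, ← h1, zpow_add]
  norm_num
  ac_rfl

theorem tor_fc_emb (γ δ : Fˣ) :
    (tor chevD4 F (fc F γ δ) : Matrix chevD4.Idx chevD4.Idx F) * embM F =
      embM F * (tor chevG2 F (fc F γ δ) : Matrix chevG2.Idx chevG2.Idx F) := by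
  rw [SD.tor_val, SG.tor_val, dg, dg]
  ext x k
  rw [Matrix.diagonal_mul, Matrix.mul_diagonal]
  simp only [embM, Matrix.of_apply]
  by_cases h : foldC (enc chevD4 x) = enc chevG2 k
  · rw [if_pos h]
    rcases x with j | r <;> rcases k with i | m
    · simp
    · exfalso
      exact (by decide : ∀ (j : Fin chevD4.rank) (m : Fin chevG2.nroots),
        foldC (enc chevD4 (Sum.inl j)) ≠ enc chevG2 (Sum.inr m)) j m h
    · exfalso
      exact (by decide : ∀ (r : Fin chevD4.nroots) (i : Fin chevG2.rank),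
        foldC (enc chevD4 (Sum.inr r)) ≠ enc chevG2 (Sum.inl i)) r i h
    · have hm : lev r = m := by
        have e := foldC_root r r.isLt
        simp only [enc] at h
        rw [show chevD4.rank = 4 from rfl, show chevG2.rank = 2 from rfl] at h
        omega
      simp only [Sum.elim_inr, torusVal_fc F γ δ r.isLt, hm]
      rw [mul_comm]
  · rw [if_neg h, mul_zero, zero_mul]

theorem exists_fc {c : ℕ → Fˣ} (h : cj F (tor chevD4 F c) = tor chevD4 F c) :
    ∃ γ δ : Fˣ, tor chevD4 F c = tor chevD4 F (fc F γ δ) := by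
  rw [cj_tor] at h
  have hv : ∀ s < 24, torusVal chevD4 c (pR s) = torusVal chevD4 c s := by
    intro s hs
    have e := congrArg (fun g : GL chevD4.Idx F => (g : Matrix chevD4.Idx chevD4.Idx F)) h
    simp only [SD.tor_val] at e
    have e' := Units.ext (dg_inj e (s := pR s) (symT.p_lt s hs))
    rw [← e', torusVal_shift F c hs]
  set A := torusVal chevD4 c 18 with hA
  set B := torusVal chevD4 c 14 with hB
  refine ⟨A * A * B, A * A * A * (B * B), ?_⟩
  set c' := fc F (A * A * B) (A * A * A * (B * B)) with hc'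
  have key : ∀ i < 4, torusVal chevD4 c' (chevD4.simple i) = torusVal chevD4 c (chevD4.simple i) := by
    have t18 : torusVal chevD4 c 13 = A := hv 18 (by norm_num)
    have t13 : torusVal chevD4 c 12 = A := (hv 13 (by norm_num)).trans t18
    have hval : ∀ i < 4, (List.range 4).map (fun j => chevD4.cartan j (chevD4.simple i)) =
        [[2, -1, 0, 0], [-1, 2, -1, -1], [0, -1, 2, 0], [0, -1, 0, 2]].getD i [] := by decide +kernel
    intro i hi
    have hv' := hval i hi
    have hrhs : torusVal chevD4 c (chevD4.simple i) = if i = 1 then B else A := by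
      interval_cases i
      · exact hA.symm
      · exact hB.symm
      · exact t18
      · exact t13
    rw [hrhs]
    interval_cases i <;>
    · simp only [List.range_succ, List.range_zero, List.nil_append, List.map_append, List.map_cons,
        List.map_nil, List.cons_append, List.getD_cons_zero, List.getD_cons_succ, List.cons.injEq,
        and_true] at hv'
      obtain ⟨c0, c1, c2, c3⟩ := hv'
      simp only [hc', fc, torusVal, show chevD4.rank = 4 from rfl, Finset.prod_range_succ,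
        Finset.prod_range_zero, one_mul, c0, c1, c2, c3]
      refine Units.ext ?_
      norm_num [Units.val_inv_eq_inv_val, Units.val_zpow_eq_zpow_val]
      field_simp
  have h1 : tor chevD4 F (c * c'⁻¹) = 1 := by
    refine SD.tor_eq_one_of_simple F _ fun i hi => ?_
    have e : torusVal chevD4 (c * c'⁻¹) (chevD4.simple i) =
        torusVal chevD4 c (chevD4.simple i) * (torusVal chevD4 c' (chevD4.simple i))⁻¹ := by
      simp only [torusVal, Pi.mul_apply, Pi.inv_apply, mul_zpow, inv_zpow', zpow_neg,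
        Finset.prod_mul_distrib, Finset.prod_inv_distrib]
    rw [e, key i hi, mul_inv_cancel, Units.val_one]
  rwa [map_mul, map_inv, mul_inv_eq_one] at h1

/-- the restriction of a fixed element of the Borel subgroup -/
theorem fixed_borel {b : GL chevD4.Idx F} (hb : b ∈ chevD4.borelSubgroup F) (hfix : cj F b = b) :
    ∃ a : ℕ → F, ∃ γ δ : Fˣ, ∃ hv : foldProd F a 6 ∈ cenP F,
      ∃ ht : tor chevD4 F (fc F γ δ) ∈ cenP F, b = foldProd F a 6 * tor chevD4 F (fc F γ δ) ∧
        rho F ⟨tor chevD4 F (fc F γ δ), ht⟩ = tor chevG2 F (fc F γ δ) := by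
  obtain ⟨v, hv, c, rfl⟩ := (SD.mem_borel F).mp hb
  obtain ⟨h1, h2⟩ := cj_borel_parts F hv c hfix
  obtain ⟨a, rfl⟩ := fixed_uni F hv h1
  obtain ⟨γ, δ, e⟩ := exists_fc F h2
  rw [e] at h2 ⊢
  exact ⟨a, γ, δ, foldProd_mem F a 6, (mem_cenP_iff_cj F).2 h2, rfl,
    rho_eq_of F (tor_fc_emb F γ δ)⟩

/-- the fixed subgroup of the triality -/
noncomputable def fixG : Subgroup ↥(cenP F) := (chevD4.group F).subgroupOf (cenP F)

theorem mem_fixG {g : ↥(cenP F)} : g ∈ fixG F ↔ (g : GL chevD4.Idx F) ∈ chevD4.group F :=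
  Subgroup.mem_subgroupOf

theorem ordProd_mem_pos (a : ℕ → F) : SG.ordProd F a 6 ∈ chevG2.posUnipotent F := by
  rw [← uSub_univ]
  exact SG.ordProd_mem F a le_rfl fun r _ _ => Or.inl (Set.mem_univ r)

theorem rho_borel {b : ↥(cenP F)} (hb : (b : GL chevD4.Idx F) ∈ chevD4.borelSubgroup F) :
    rho F b ∈ chevG2.borelSubgroup F := by
  obtain ⟨a, γ, δ, hv, ht, e, hr⟩ := fixed_borel F hb ((mem_cenP_iff_cj F).1 b.2)
  rw [show b = ⟨foldProd F a 6, hv⟩ * ⟨tor chevD4 F (fc F γ δ), ht⟩ from Subtype.ext e, map_mul,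
    rho_foldProd, hr]
  refine mul_mem (Subgroup.mem_sup_left (ordProd_mem_pos F a)) (Subgroup.mem_sup_right ?_)
  rw [SG.diagonal_eq]
  exact ⟨_, rfl⟩

theorem map_fixG : (fixG F).map (rho F) = chevG2.group F := by
  refine le_antisymm ?_ ?_
  · rintro _ ⟨g, hg, rfl⟩
    obtain ⟨n, n2, hn, b, hb, hbf, u, hu, huf, e⟩ :=
      exists_fixed_form F ((mem_fixG F).1 hg) ((mem_cenP_iff_cj F).1 g.2)
    obtain ⟨hnc, hn2, -⟩ := hn
    have hub : u ∈ chevD4.borelSubgroup F := Subgroup.mem_sup_left (uSub_le_posUnipotent F _ hu)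
    rw [show g = ⟨b, (mem_cenP_iff_cj F).2 hbf⟩ * ⟨n, hnc⟩ * ⟨u, (mem_cenP_iff_cj F).2 huf⟩ from
      Subtype.ext e, map_mul, map_mul, hn2]
    exact mul_mem (mul_mem (SG.borel_le_group F (rho_borel F hb)) (SG.monomial_le_group F n2.2))
      (SG.borel_le_group F (rho_borel F hub))
  · rw [SG.group_eq, Subgroup.closure_le]
    rintro _ ⟨k, hk, t, rfl⟩
    exact ⟨xC F ⟨k, hk⟩ t, (mem_fixG F).2 (xF_mem_group F k t), rho_xC F _ t⟩

theorem rho_injective {g : ↥(cenP F)} (hg : g ∈ fixG F) (h1 : rho F g = 1) : g = 1 := by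
  obtain ⟨n, n2, hn, b, hb, hbf, u, hu, huf, e⟩ :=
    exists_fixed_form F ((mem_fixG F).1 hg) ((mem_cenP_iff_cj F).1 g.2)
  obtain ⟨hnc, hn2, hlev⟩ := hn
  have hub : u ∈ chevD4.borelSubgroup F := Subgroup.mem_sup_left (uSub_le_posUnipotent F _ hu)
  have eg : g = ⟨b, (mem_cenP_iff_cj F).2 hbf⟩ * ⟨n, hnc⟩ * ⟨u, (mem_cenP_iff_cj F).2 huf⟩ :=
    Subtype.ext e
  rw [eg, map_mul, map_mul, hn2] at h1
  have hd := SG.bruhat_unique F (one_mem _) (one_mem _) (rho_borel F (b := ⟨b, (mem_cenP_iff_cj F).2 hbf⟩) hb)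
    (rho_borel F (b := ⟨u, (mem_cenP_iff_cj F).2 huf⟩) hub)
    (one_mem (chevG2.monomialSubgroup F)) n2.2 (by rw [h1, mul_one, one_mul])
  rw [inv_one, one_mul] at hd
  have hp2 : SG.perm F n2 = 1 := SG.perm_of_mem_hSub F hd
  obtain ⟨L, hL⟩ := SD.exists_wperm F n
  have hpos : ∀ s : Fin chevD4.nroots, 12 ≤ (s : ℕ) → 12 ≤ (SD.perm F n s : ℕ) := by
    intro s hs
    have hl := hlev s
    rw [hp2, Equiv.Perm.one_apply] at hl
    have a1 := (lev_pos_iff s s.isLt).1 hs
    exact (lev_pos_iff _ (Fin.isLt _)).2 (hl ▸ a1)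
  have hperm : SD.perm F n = 1 := by
    rw [hL]
    exact SD.wperm_eq_one F L fun s hs => hL ▸ hpos s hs
  have hu1 : u = 1 := by
    rw [uSub_empty_of (fun r hr hp => ?_), Subgroup.mem_bot] at hu
    · exact hu
    · obtain ⟨hr', hr1⟩ := hr
      rw [hperm, Equiv.Perm.one_apply] at hr1
      have := ((SD.pos_iff r).1 hp).1
      simp only at hr1
      omega
  have hnd : (n : GL chevD4.Idx F) ∈ chevD4.diagonalSubgroup F := by
    have : n ∈ hSub chevD4 F := by rw [← SD.ker_perm F, MonoidHom.mem_ker, hperm]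
    exact this
  have hgb : (g : GL chevD4.Idx F) ∈ chevD4.borelSubgroup F := by
    rw [e, hu1, mul_one]
    exact mul_mem hb (Subgroup.mem_sup_right hnd)
  obtain ⟨a, γ, δ, hv, ht, e', hr⟩ := fixed_borel F hgb ((mem_cenP_iff_cj F).1 g.2)
  have eg' : g = ⟨foldProd F a 6, hv⟩ * ⟨tor chevD4 F (fc F γ δ), ht⟩ := Subtype.ext e'
  rw [← hn2, ← map_mul, ← map_mul, ← eg, eg', map_mul, rho_foldProd, hr] at h1
  have hT : tor chevG2 F (fc F γ δ) ∈ chevG2.posUnipotent F ⊓ chevG2.diagonalSubgroup F := by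
    refine Subgroup.mem_inf.2 ⟨?_, by rw [SG.diagonal_eq]; exact ⟨_, rfl⟩⟩
    rw [eq_inv_of_mul_eq_one_right h1]
    exact inv_mem (ordProd_mem_pos F a)
  rw [SG.posUnipotent_inf_diagonal F, Subgroup.mem_bot] at hT
  rw [hT, mul_one] at h1
  have ha : ∀ k, 6 ≤ k → k < 12 → a k = 0 := by
    intro k hk1 hk2
    refine SG.ordProd_inj_half F (t := a) (u := fun _ => 0) ?_ hk1 hk2
    rw [show chevG2.nroots / 2 = 6 from rfl, h1]
    refine (List.prod_eq_one fun x hx => ?_).symm
    simp only [List.map_map, List.mem_map, Function.comp_apply] at hx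
    obtain ⟨r, -, rfl⟩ := hx
    exact SG.xG_zero F r
  have hv1 : foldProd F a 6 = 1 := by
    refine List.prod_eq_one fun x hx => ?_
    obtain ⟨k, hk, rfl⟩ := List.mem_map.1 hx
    rw [List.mem_range'_1] at hk
    rw [ha k hk.1 (by omega), xF]
    refine List.prod_eq_one fun y hy => ?_
    simp only [List.map_map, List.mem_map, Function.comp_apply, mul_zero] at hy
    obtain ⟨r, -, rfl⟩ := hy
    exact SD.xG_zero F r
  have ht1 : tor chevD4 F (fc F γ δ) = 1 := by
    refine SD.tor_eq_one_of_simple F _ fun i hi => ?_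
    have hl := SD.wf.simple_lt i hi
    rw [torusVal_fc F γ δ hl]
    have e2 := congrArg (fun g : GL chevG2.Idx F => (g : Matrix chevG2.Idx chevG2.Idx F)) hT
    simp only [SG.tor_val, Units.val_one] at e2
    have e3 := congrFun (congrFun e2 (Sum.inr ⟨lev (chevD4.simple i), lev_lt _ hl⟩))
      (Sum.inr ⟨lev (chevD4.simple i), lev_lt _ hl⟩)
    simpa [dg] using e3
  exact Subtype.ext (by rw [e', hv1, ht1, mul_one]; rfl)

/-- The fixed subgroup is isomorphic to the group of type G2. -/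
theorem fixG_equiv : Nonempty (↥(fixG F) ≃* ↥(chevG2.group F)) := by
  have hinj : Function.Injective ((rho F).comp (fixG F).subtype) := by
    refine (injective_iff_map_eq_one _).2 fun g hg => Subtype.ext ?_
    exact rho_injective F g.2 hg
  refine ⟨(MonoidHom.ofInjective hinj).trans (MulEquiv.subgroupCongr ?_)⟩
  rw [MonoidHom.range_comp, Subgroup.range_subtype, map_fixG]

end CfsgLib.Triality
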