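import Cfsg.Agent.Triality.Data

/-!
The representation of the centralizer of the triality matrix on its fixed vectors.
-/

set_option autoImplicit false

namespace CfsgLib.Triality

open Cfsg.Lie CfsgLib.Chevalley
open scoped Matrix

variable (F : Type*) [Field F]

/-- the triality matrix -/
noncomputable def triP : GL chevD4.Idx F := (symT.symMat_isUnit F).unit

theorem triP_val : (triP F : Matrix chevD4.Idx chevD4.Idx F) = symMat chevD4 F pR eR qN :=
  (symT.symMat_isUnit F).unit_spec

/-- the embedding of the fixed vectors -/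
noncomputable def embM : Matrix chevD4.Idx chevG2.Idx F :=
  Matrix.of fun x k => if foldC (enc chevD4 x) = enc chevG2 k then (sgnC (enc chevD4 x) : F) else 0

/-- a representative coordinate -/
def repC (k : ℕ) : ℕ := ((List.range 28).filter fun x => foldC x == k).headD 0

/-- the retraction -/
noncomputable def retM : Matrix chevG2.Idx chevD4.Idx F :=
  Matrix.of fun k x => if enc chevD4 x = repC (enc chevG2 k) then (sgnC (enc chevD4 x) : F) else 0

theorem sgnC_sq : ∀ x : chevD4.Idx, sgnC (enc chevD4 x) * sgnC (enc chevD4 x) = 1 := by decide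

theorem repC_eq : ∀ k : chevG2.Idx, ∃ x : chevD4.Idx, enc chevD4 x = repC (enc chevG2 k) ∧
    foldC (enc chevD4 x) = enc chevG2 k := by decide

theorem foldC_eq : ∀ x : chevD4.Idx, ∃ k : chevG2.Idx, foldC (enc chevD4 x) = enc chevG2 k := by
  decide

theorem ret_mul_emb : retM F * embM F = 1 := by
  ext k l
  obtain ⟨x, hx, hfx⟩ := repC_eq k
  rw [Matrix.mul_apply, Finset.sum_eq_single x]
  · simp only [retM, embM, Matrix.of_apply, if_pos hx, hfx, (enc_injective chevG2).eq_iff]
    rw [Matrix.one_apply]
    split_ifs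
    · rw [← Int.cast_mul, sgnC_sq x, Int.cast_one]
    · rw [mul_zero]
  · intro y _ hy
    rw [retM, Matrix.of_apply, if_neg fun e => hy (enc_injective chevD4 (e.trans hx.symm)), zero_mul]
  · intro h
    exact absurd (Finset.mem_univ x) h

/-- the coordinate permutation -/
def pI : chevD4.Idx → chevD4.Idx
  | Sum.inl j => Sum.inl ⟨qN j % 4, Nat.mod_lt _ (by norm_num)⟩
  | Sum.inr s => Sum.inr ⟨pR s % 24, Nat.mod_lt _ (by norm_num)⟩

/-- the coordinate signs -/
def eI : chevD4.Idx → ℤ
  | Sum.inl _ => 1
  | Sum.inr s => eR s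

theorem orbit_facts : ∀ x : chevD4.Idx,
    foldC (enc chevD4 (pI x)) = foldC (enc chevD4 x) ∧
    sgnC (enc chevD4 (pI x)) = eI x * sgnC (enc chevD4 x) ∧
    ∃ k : chevG2.Idx, foldC (enc chevD4 x) = enc chevG2 k ∧
      (enc chevD4 x = repC (enc chevG2 k) ∨ enc chevD4 (pI x) = repC (enc chevG2 k) ∨
        enc chevD4 (pI (pI x)) = repC (enc chevG2 k)) := by decide +kernel

theorem symMat_apply_pI (x y : chevD4.Idx) :
    symMat chevD4 F pR eR qN (pI x) y = if y = x then (eI x : F) else 0 := by
  have key : ∀ x y : chevD4.Idx,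
      (enc chevD4 (pI x) = (match y with
        | Sum.inl j => qN j
        | Sum.inr s => chevD4.rank + pR s)) ↔ y = x := by decide +kernel
  rcases y with j | s
  · simp only [symMat, Matrix.of_apply, Sum.elim_inl, bv]
    have h := key x (Sum.inl j)
    dsimp only at h
    by_cases hy : (Sum.inl j : chevD4.Idx) = x
    · subst hy
      rw [if_pos (h.2 rfl), if_pos rfl]
      simp [eI]
    · rw [if_neg fun e => hy (h.1 e), if_neg hy]
  · simp only [symMat, Matrix.of_apply, Sum.elim_inr, bv]
    have h := key x (Sum.inr s)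
    dsimp only at h
    by_cases hy : (Sum.inr s : chevD4.Idx) = x
    · subst hy
      rw [if_pos (h.2 rfl), if_pos rfl]
      simp [eI]
    · rw [if_neg fun e => hy (h.1 e), if_neg hy, mul_zero]

theorem fixed_apply {v : chevD4.Idx → F} (hv : (triP F : Matrix chevD4.Idx chevD4.Idx F) *ᵥ v = v) (x : chevD4.Idx) :
    v (pI x) = (eI x : F) * v x := by
  conv_lhs => rw [← hv, triP_val]
  simp [Matrix.mulVec, dotProduct, symMat_apply_pI]

theorem emb_ret_fixed {v : chevD4.Idx → F} (hv : (triP F : Matrix chevD4.Idx chevD4.Idx F) *ᵥ v = v) :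
    embM F *ᵥ (retM F *ᵥ v) = v := by
  funext x
  obtain ⟨-, -, k, hk, hrep⟩ := orbit_facts x
  obtain ⟨y, hy, hfy⟩ := repC_eq k
  have h1 : (retM F *ᵥ v) k = (sgnC (enc chevD4 y) : F) * v y := by
    rw [Matrix.mulVec, dotProduct, Finset.sum_eq_single y]
    · rw [retM, Matrix.of_apply, if_pos hy]
    · intro z _ hz
      rw [retM, Matrix.of_apply, if_neg fun e => hz (enc_injective chevD4 (e.trans hy.symm)),
        zero_mul]
    · intro h
      exact absurd (Finset.mem_univ y) h
  have h2 : (embM F *ᵥ (retM F *ᵥ v)) x = (sgnC (enc chevD4 x) : F) * (retM F *ᵥ v) k := by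
    rw [Matrix.mulVec, dotProduct, Finset.sum_eq_single k]
    · rw [embM, Matrix.of_apply, if_pos hk]
    · intro z _ hz
      rw [embM, Matrix.of_apply, if_neg fun e => hz (enc_injective chevG2 (e.symm.trans hk)),
        zero_mul]
    · intro h
      exact absurd (Finset.mem_univ k) h
  rw [h2, h1, ← mul_assoc, ← Int.cast_mul]
  have hs : ∀ z : chevD4.Idx, v (pI z) * (sgnC (enc chevD4 (pI z)) : F) =
      v z * (sgnC (enc chevD4 z) : F) := by
    intro z
    obtain ⟨-, e, -⟩ := orbit_facts z
    have he : (eI z : F) * (eI z : F) = 1 := by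
      rw [← Int.cast_mul, show eI z * eI z = 1 from (by decide +kernel : ∀ z, eI z * eI z = 1) z,
        Int.cast_one]
    rw [fixed_apply F hv, e, Int.cast_mul]
    linear_combination v z * (sgnC (enc chevD4 z) : F) * he
  have hyx : v y * (sgnC (enc chevD4 y) : F) = v x * (sgnC (enc chevD4 x) : F) := by
    rcases hrep with h | h | h
    · rw [enc_injective chevD4 (hy.trans h.symm)]
    · rw [enc_injective chevD4 (hy.trans h.symm), hs]
    · rw [enc_injective chevD4 (hy.trans h.symm), hs, hs]
  have hx : (sgnC (enc chevD4 x) : F) * (sgnC (enc chevD4 x) : F) = 1 := by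
    rw [← Int.cast_mul, sgnC_sq x, Int.cast_one]
  rw [Int.cast_mul]
  linear_combination (sgnC (enc chevD4 x) : F) * hyx + v x * hx

theorem triP_emb : (triP F : Matrix chevD4.Idx chevD4.Idx F) * embM F = embM F := by
  have hsurj : Function.Surjective pI := by
    intro x
    revert x
    decide +kernel
  ext x k
  obtain ⟨x, rfl⟩ := hsurj x
  obtain ⟨hf, hs, -⟩ := orbit_facts x
  rw [Matrix.mul_apply, triP_val]
  simp only [symMat_apply_pI, ite_mul, zero_mul, Finset.sum_ite_eq', Finset.mem_univ, if_true]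
  simp only [embM, Matrix.of_apply, hf, hs, Int.cast_mul, mul_ite, mul_zero]

/-- the centralizer of the triality matrix -/
noncomputable def cenP : Subgroup (GL chevD4.Idx F) := Subgroup.centralizer {triP F}

theorem mem_cenP {g : GL chevD4.Idx F} :
    g ∈ cenP F ↔ triP F * g = g * triP F := by
  simp [cenP, Subgroup.mem_centralizer_iff]

theorem emb_ret_of_mem {g : GL chevD4.Idx F} (hg : g ∈ cenP F) :
    embM F * (retM F * ((g : Matrix chevD4.Idx chevD4.Idx F) * embM F)) = (g : Matrix chevD4.Idx chevD4.Idx F) * embM F := by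
  have hfix : (triP F : Matrix chevD4.Idx chevD4.Idx F) * ((g : Matrix chevD4.Idx chevD4.Idx F) * embM F) =
      (g : Matrix chevD4.Idx chevD4.Idx F) * embM F := by
    rw [← Matrix.mul_assoc, ← Units.val_mul, (mem_cenP F).1 hg, Units.val_mul, Matrix.mul_assoc,
      triP_emb]
  ext x k
  have hv : (triP F : Matrix chevD4.Idx chevD4.Idx F) *ᵥ (((g : Matrix chevD4.Idx chevD4.Idx F) * embM F) *ᵥ Pi.single k 1) =
      ((g : Matrix chevD4.Idx chevD4.Idx F) * embM F) *ᵥ Pi.single k 1 := by
    rw [Matrix.mulVec_mulVec, hfix]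
  have h := congrFun (emb_ret_fixed F hv) x
  rw [Matrix.mulVec_mulVec, Matrix.mulVec_mulVec, Matrix.mulVec_single, Matrix.mulVec_single] at h
  simpa [Matrix.mul_assoc] using h

/-- restriction to the fixed vectors, as a map to matrices -/
noncomputable def rhoMat : ↥(cenP F) →* Matrix chevG2.Idx chevG2.Idx F where
  toFun g := retM F * (((g : GL chevD4.Idx F) : Matrix chevD4.Idx chevD4.Idx F) * embM F)
  map_one' := by
    rw [OneMemClass.coe_one, Units.val_one, Matrix.one_mul, ret_mul_emb]
  map_mul' g h := by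
    rw [Subgroup.coe_mul, Units.val_mul, Matrix.mul_assoc _ _ (embM F),
      Matrix.mul_assoc (retM F)]
    conv_lhs => rw [← emb_ret_of_mem F h.2]
    simp only [Matrix.mul_assoc]

/-- restriction to the fixed vectors -/
noncomputable def rho : ↥(cenP F) →* GL chevG2.Idx F := (rhoMat F).toHomUnits

theorem rho_val (g : ↥(cenP F)) : (rho F g : Matrix chevG2.Idx chevG2.Idx F) =
    retM F * (((g : GL chevD4.Idx F) : Matrix chevD4.Idx chevD4.Idx F) * embM F) := rfl

/-- An equation on the fixed vectors determines the restriction. -/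
theorem rho_eq_of {g : ↥(cenP F)} {h : GL chevG2.Idx F}
    (e : ((g : GL chevD4.Idx F) : Matrix chevD4.Idx chevD4.Idx F) * embM F = embM F * (h : Matrix chevG2.Idx chevG2.Idx F)) :
    rho F g = h := by
  refine Units.ext ?_
  rw [rho_val, e, ← Matrix.mul_assoc, ret_mul_emb, Matrix.one_mul]

end CfsgLib.Triality
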