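import Cfsg.Agent.Triality.Unipotent

/-!
The folded monomial elements and the fixed elements of the Weyl group.
-/

set_option autoImplicit false

namespace CfsgLib.Triality

open Cfsg.Lie CfsgLib.Chevalley
open scoped Matrix

/-- node of D4 -/
abbrev nd (i : ℕ) (h : i < 4 := by norm_num) : Fin chevD4.rank := ⟨i, h⟩

/-- node of G2 -/
abbrev gd (i : ℕ) (h : i < 2 := by norm_num) : Fin chevG2.rank := ⟨i, h⟩

/-- the triality on the root indices -/
def pP : Equiv.Perm (Fin chevD4.nroots) where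
  toFun s := ⟨pR s % 24, Nat.mod_lt _ (by norm_num)⟩
  invFun s := ⟨pR (pR s) % 24, Nat.mod_lt _ (by norm_num)⟩
  left_inv := by decide +kernel
  right_inv := by decide +kernel

theorem pP_val (s : Fin chevD4.nroots) : (pP s : ℕ) = pR s :=
  (by decide +kernel : ∀ s : Fin chevD4.nroots, (pP s : ℕ) = pR s) s

/-- the reflection of the folded short node -/
noncomputable def sigA : Equiv.Perm (Fin chevD4.nroots) :=
  SD.srefl (nd 0) * SD.srefl (nd 2) * SD.srefl (nd 3)

/-- reflections on roots, computed from the tables -/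
def rfA (s : ℕ) : ℕ := chevD4.reflectRoot 0 (chevD4.reflectRoot 2 (chevD4.reflectRoot 3 s))

theorem sigA_val (s : Fin chevD4.nroots) : (sigA s : ℕ) = rfA s := by
  simp only [sigA, Equiv.Perm.mul_apply, SD.srefl_val, rfA]

theorem fold_srefl : ∀ s < 24,
    chevG2.reflectRoot 0 (lev s) = lev (rfA s) ∧
      chevG2.reflectRoot 1 (lev s) = lev (chevD4.reflectRoot 1 s) := by decide +kernel

theorem pR_reflect : ∀ i < 4, ∀ s < 24,
    pR (chevD4.reflectRoot i s) = chevD4.reflectRoot (qN i) (pR s) := by decide +kernel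

theorem pP_srefl (i : Fin chevD4.rank) : pP * SD.srefl i = SD.srefl ⟨qN i, symT.q_lt i i.isLt⟩ * pP := by
  refine Equiv.ext fun s => Fin.ext ?_
  simp only [Equiv.Perm.mul_apply, pP_val, SD.srefl_val]
  exact pR_reflect i i.isLt s s.isLt

theorem pP_sigA : pP * sigA = sigA * pP := by
  refine Equiv.ext fun s => Fin.ext ?_
  simp only [Equiv.Perm.mul_apply, pP_val, sigA_val]
  exact (by decide +kernel : ∀ s < 24, pR (rfA s) = rfA (pR s)) s s.isLt

theorem pP_srefl1 : pP * SD.srefl (nd 1) = SD.srefl (nd 1) * pP := pP_srefl (nd 1)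

variable (F : Type*) [Field F]

/-- evaluator word with constant coefficients for a folded root element -/
def foldK (k : ℕ) (c : ℤ) : List (ℕ × List Mon) := (fibre k).map fun r => (r, [(sg r * c, 0, 0)])

theorem wG_foldK (k : ℕ) (c : ℤ) :
    chevD4.wordMat F ((foldK k c).map fun e => (e.1, pev F (1 : F) 1 e.2)) =
      (xF F k (c : F) : Matrix chevD4.Idx chevD4.Idx F) := by
  rw [xF, SD.wG_val, foldK, List.map_map]
  simp [pev, Function.comp_def]

theorem nW_eq {W : List ℕ} {g : List (ℕ × ℤ)}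
    (h : wordEqB chevD4 (W.flatMap (nW chevD4)) (g.flatMap fun e => foldK e.1 e.2) = true) :
    (W.map fun r => chevD4.nMat F r 1).prod =
      (g.map fun e => (xF F e.1 (e.2 : F) : Matrix chevD4.Idx chevD4.Idx F)).prod := by
  have e := wordEq_sound (F := F) SD.wf h 1 1
  have h1 : ∀ W : List ℕ, chevD4.wordMat F ((W.flatMap (nW chevD4)).map
      fun e => (e.1, pev F (1 : F) 1 e.2)) = (W.map fun r => chevD4.nMat F r 1).prod := by
    intro W
    induction W with
    | nil => rfl
    | cons r W ih => rw [List.flatMap_cons, List.map_append, wordMat_append, SD.nWMat, ih,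
        List.map_cons, List.prod_cons]
  have h2 : ∀ g : List (ℕ × ℤ), chevD4.wordMat F ((g.flatMap fun e => foldK e.1 e.2).map
      fun e => (e.1, pev F (1 : F) 1 e.2)) =
      (g.map fun e => (xF F e.1 (e.2 : F) : Matrix chevD4.Idx chevD4.Idx F)).prod := by
    intro g
    induction g with
    | nil => rfl
    | cons r g ih => rw [List.flatMap_cons, List.map_append, wordMat_append, wG_foldK, ih,
        List.map_cons, List.prod_cons]
  rwa [h1, h2] at e

/-- the short monomial element -/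
noncomputable def nA : ↥(chevD4.monomialSubgroup F) :=
  SD.nN F (nd 0) * SD.nN F (nd 2) * SD.nN F (nd 3)

/-- the long monomial element -/
noncomputable def nB : ↥(chevD4.monomialSubgroup F) := SD.nN F (nd 1)

theorem nA_eq : (nA F : GL chevD4.Idx F) = xF F 7 1 * xF F 4 (-1) * xF F 7 1 := by
  refine Units.ext ?_
  have h := nW_eq F (W := [18, 13, 12]) (g := [(7, 1), (4, -1), (7, 1)]) (by decide +kernel)
  simp only [List.map_cons, List.map_nil, List.prod_cons, List.prod_nil, mul_one, Int.cast_one,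
    Int.cast_neg, ← mul_assoc] at h
  simp only [Units.val_mul, nA, Sys.nN, Subgroup.coe_mul, SD.nG_val]
  exact h

theorem nB_eq : (nB F : GL chevD4.Idx F) = xF F 6 1 * xF F 5 (-1) * xF F 6 1 := by
  refine Units.ext ?_
  have h := nW_eq F (W := [14]) (g := [(6, 1), (5, -1), (6, 1)]) (by decide +kernel)
  simp only [List.map_cons, List.map_nil, List.prod_cons, List.prod_nil, mul_one, Int.cast_one,
    Int.cast_neg, ← mul_assoc] at h
  simp only [Units.val_mul, nB, Sys.nN, SD.nG_val]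
  exact h

/-- `n2` is the restriction of the fixed monomial element `n`, compatibly on roots. -/
def IsRep (n : ↥(chevD4.monomialSubgroup F)) (n2 : ↥(chevG2.monomialSubgroup F)) : Prop :=
  ∃ h : (n : GL chevD4.Idx F) ∈ cenP F, rho F ⟨n, h⟩ = (n2 : GL chevG2.Idx F) ∧
    ∀ s : Fin chevD4.nroots, lev (SD.perm F n s) =
      (SG.perm F n2 ⟨lev s, lev_lt s s.isLt⟩ : ℕ)

theorem isRep_one : IsRep F 1 1 := by
  refine ⟨one_mem _, map_one (rho F), fun s => ?_⟩
  rw [map_one, map_one]
  rfl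

theorem isRep_mul {n m : ↥(chevD4.monomialSubgroup F)} {n2 m2 : ↥(chevG2.monomialSubgroup F)}
    (hn : IsRep F n n2) (hm : IsRep F m m2) : IsRep F (n * m) (n2 * m2) := by
  obtain ⟨hn1, hn2, hn3⟩ := hn
  obtain ⟨hm1, hm2, hm3⟩ := hm
  refine ⟨mul_mem hn1 hm1, ?_, fun s => ?_⟩
  · rw [show (⟨((n * m : ↥(chevD4.monomialSubgroup F)) : GL chevD4.Idx F), mul_mem hn1 hm1⟩ :
      ↥(cenP F)) = ⟨n, hn1⟩ * ⟨m, hm1⟩ from rfl, map_mul, hn2, hm2]
    rfl
  · rw [map_mul, map_mul, Equiv.Perm.mul_apply, Equiv.Perm.mul_apply, hn3]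
    congr 1
    congr 1
    exact Fin.ext (hm3 s)

theorem isRep_nA : IsRep F (nA F) (SG.nN F (gd 0)) := by
  have hmem : (nA F : GL chevD4.Idx F) ∈ cenP F := by
    rw [nA_eq]
    exact mul_mem (mul_mem (xF_mem_cenP F (by norm_num) _) (xF_mem_cenP F (by norm_num) _))
      (xF_mem_cenP F (by norm_num) _)
  refine ⟨hmem, ?_, fun s => ?_⟩
  · have e : (⟨(nA F : GL chevD4.Idx F), hmem⟩ : ↥(cenP F)) =
        xC F ⟨7, by norm_num⟩ 1 * xC F ⟨4, by norm_num⟩ (-1) * xC F ⟨7, by norm_num⟩ 1 :=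
      Subtype.ext (nA_eq F)
    rw [e, map_mul, map_mul, rho_xC, rho_xC, Sys.nN]
    show _ = SG.nG F (chevG2.simple 0) 1
    rw [SG.nG_eq, inv_one]
    rfl
  · simp only [nA, map_mul, SD.perm_nN, SG.perm_nN]
    rw [SG.srefl_val]
    show lev (sigA s : ℕ) = chevG2.reflectRoot 0 (lev s)
    rw [sigA_val]
    exact ((fold_srefl s s.isLt).1).symm

theorem isRep_nB : IsRep F (nB F) (SG.nN F (gd 1)) := by
  have hmem : (nB F : GL chevD4.Idx F) ∈ cenP F := by
    rw [nB_eq]
    exact mul_mem (mul_mem (xF_mem_cenP F (by norm_num) _) (xF_mem_cenP F (by norm_num) _))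
      (xF_mem_cenP F (by norm_num) _)
  refine ⟨hmem, ?_, fun s => ?_⟩
  · have e : (⟨(nB F : GL chevD4.Idx F), hmem⟩ : ↥(cenP F)) =
        xC F ⟨6, by norm_num⟩ 1 * xC F ⟨5, by norm_num⟩ (-1) * xC F ⟨6, by norm_num⟩ 1 :=
      Subtype.ext (nB_eq F)
    rw [e, map_mul, map_mul, rho_xC, rho_xC, Sys.nN]
    show _ = SG.nG F (chevG2.simple 1) 1
    rw [SG.nG_eq, inv_one]
    rfl
  · simp only [nB, SD.perm_nN, SG.perm_nN]
    rw [SG.srefl_val, SD.srefl_val]
    exact ((fold_srefl s s.isLt).2).symm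

theorem perm_nA : SD.perm F (nA F) = sigA := by
  simp only [nA, map_mul, SD.perm_nN, sigA]

/-- An involution reversing a set of positive roots that the element makes negative shortens it. -/
theorem card_invSet_lt {σ s : Equiv.Perm (Fin chevD4.nroots)} (hs : ∀ x, s (s x) = x)
    (J : Finset (Fin chevD4.nroots)) (j : Fin chevD4.nroots) (hj : j ∈ J)
    (hJ : ∀ x ∈ J, 12 ≤ (x : ℕ) ∧ (σ x : ℕ) < 12 ∧ s x = SD.negF x)
    (hneg : ∀ x, σ (SD.negF x) = SD.negF (σ x))
    (hpos : ∀ x : Fin chevD4.nroots, 12 ≤ (x : ℕ) → x ∉ J → 12 ≤ (s x : ℕ)) :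
    (invSet (σ * s)).card < (invSet σ).card := by
  have hnr : chevD4.nroots / 2 = 12 := rfl
  have hmap : ∀ r ∈ invSet (σ * s), s r ∈ (invSet σ).erase j := by
    intro r hr
    rw [mem_invSet, hnr, Equiv.Perm.mul_apply] at hr
    have hrJ : r ∉ J := fun h => by
      obtain ⟨h1, h2, h3⟩ := hJ r h
      have h4 := hr.2
      rw [h3, hneg, SD.negF_val] at h4
      have := SD.neg_half _ (Fin.isLt (σ r))
      rw [hnr] at this
      omega
    refine Finset.mem_erase.2 ⟨fun e => ?_, mem_invSet.2 ⟨hpos r hr.1 hrJ, hr.2⟩⟩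
    obtain ⟨h1, h2, h3⟩ := hJ j hj
    have h4 : r = SD.negF j := by rw [← h3, ← e, hs]
    have h5 := hr.1
    rw [h4, SD.negF_val] at h5
    have := SD.neg_half _ (Fin.isLt j)
    rw [hnr] at this
    omega
  have hjm : j ∈ invSet σ := mem_invSet.2 ⟨(hJ j hj).1, (hJ j hj).2.1⟩
  calc (invSet (σ * s)).card ≤ ((invSet σ).erase j).card :=
        Finset.card_le_card_of_injOn s (fun r hr => hmap r hr) s.injective.injOn
    _ < (invSet σ).card := Finset.card_erase_lt_of_mem hjm

theorem wperm_simple_neg (L : List (Fin chevD4.rank)) (h : SD.wperm L ≠ 1) :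
    ∃ i : Fin chevD4.rank, (SD.wperm L (SD.simpleF i) : ℕ) < 12 := by
  by_contra hc
  push Not at hc
  refine h ?_
  have hm := ChevField.mem_diagonal_of_simple_pos SD (F := ℚ) (SD.wN ℚ L) fun i => by
    rw [SD.perm_wN]; exact hc i
  rw [← SD.perm_wN ℚ L]
  exact SD.perm_of_mem_hSub ℚ hm

/-- Every fixed element of the Weyl group has a folded representative. -/
theorem exists_rep (m : ℕ) : ∀ L : List (Fin chevD4.rank),
    (invSet (SD.wperm L)).card ≤ m → pP * SD.wperm L = SD.wperm L * pP →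
      ∃ n n2, IsRep F n n2 ∧ SD.perm F n = SD.wperm L := by
  induction m using Nat.strong_induction_on with
  | _ m ih =>
    intro L hm hc
    by_cases h1 : SD.wperm L = 1
    · exact ⟨1, 1, isRep_one F, by rw [map_one, h1]⟩
    obtain ⟨i, hi⟩ := wperm_simple_neg L h1
    set σ := SD.wperm L with hσ
    have hneg : ∀ x, σ (SD.negF x) = SD.negF (σ x) := SD.wperm_negF L
    have hstep : ∀ x, (σ x : ℕ) < 12 → (σ (pP x) : ℕ) < 12 := by
      intro x hx
      rw [← Equiv.Perm.mul_apply, ← hc, Equiv.Perm.mul_apply, pP_val]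
      have := pR_pos_iff _ (Fin.isLt (σ x))
      omega
    by_cases hi1 : i = nd 1
    · subst hi1
      have hlt : (invSet (σ * SD.srefl (nd 1))).card < (invSet σ).card := by
        refine card_invSet_lt (fun x => ?_) {SD.simpleF (nd 1)} _ (Finset.mem_singleton_self _) ?_ hneg ?_
        · rw [← Equiv.Perm.mul_apply, SD.srefl_mul_self]; rfl
        · intro x hx
          rw [Finset.mem_singleton] at hx
          subst hx
          exact ⟨SD.simple_pos 1 (by decide), hi, SD.srefl_simple _⟩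
        · intro x hx hxJ
          exact SD.srefl_pos _ hx fun e => hxJ (Finset.mem_singleton.2 e)
      have hL : SD.wperm (L ++ [nd 1]) = σ * SD.srefl (nd 1) := by
        rw [SD.wperm_append]; simp [Sys.wperm, hσ]
      obtain ⟨n, n2, hn, hp⟩ := ih _ (by omega) (L ++ [nd 1]) (le_of_eq (congrArg _ (congrArg _ hL)))
        (by rw [hL, ← mul_assoc, hc, mul_assoc, pP_srefl1, mul_assoc])
      refine ⟨n * nB F, n2 * SG.nN F (gd 1), isRep_mul F hn (isRep_nB F), ?_⟩
      rw [map_mul, hp, hL, nB, SD.perm_nN, mul_assoc, SD.srefl_mul_self, mul_one]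
    · have hall : (σ (SD.simpleF (nd 0)) : ℕ) < 12 ∧ (σ (SD.simpleF (nd 2)) : ℕ) < 12 ∧
          (σ (SD.simpleF (nd 3)) : ℕ) < 12 := by
        have e0 : pP (SD.simpleF (nd 0)) = SD.simpleF (nd 2) := Fin.ext (by rw [pP_val]; decide)
        have e2 : pP (SD.simpleF (nd 2)) = SD.simpleF (nd 3) := Fin.ext (by rw [pP_val]; decide)
        have e3 : pP (SD.simpleF (nd 3)) = SD.simpleF (nd 0) := Fin.ext (by rw [pP_val]; decide)
        have hcases : i = nd 0 ∨ i = nd 2 ∨ i = nd 3 :=
          (by decide : ∀ i : Fin 4, i ≠ ⟨1, by norm_num⟩ →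
            i = ⟨0, by norm_num⟩ ∨ i = ⟨2, by norm_num⟩ ∨ i = ⟨3, by norm_num⟩) i hi1
        rcases hcases with rfl | rfl | rfl
        · exact ⟨hi, e0 ▸ hstep _ hi, e2 ▸ hstep _ (e0 ▸ hstep _ hi)⟩
        · exact ⟨e3 ▸ hstep _ (e2 ▸ hstep _ hi), hi, e2 ▸ hstep _ hi⟩
        · exact ⟨e3 ▸ hstep _ hi, e0 ▸ hstep _ (e3 ▸ hstep _ hi), hi⟩
      have hlt : (invSet (σ * sigA)).card < (invSet σ).card := by
        refine card_invSet_lt (fun x => Fin.ext ?_)
          {SD.simpleF (nd 0), SD.simpleF (nd 2), SD.simpleF (nd 3)} _ (Finset.mem_insert_self _ _) ?_ hneg ?_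
        · rw [sigA_val, sigA_val]
          exact (by decide +kernel : ∀ s < 24, rfA (rfA s) = s) x x.isLt
        · intro x hx
          simp only [Finset.mem_insert, Finset.mem_singleton] at hx
          rcases hx with rfl | rfl | rfl
          · exact ⟨SD.simple_pos 0 (by decide), hall.1, Fin.ext (by rw [sigA_val, SD.negF_val]; decide +kernel)⟩
          · exact ⟨SD.simple_pos 2 (by decide), hall.2.1, Fin.ext (by rw [sigA_val, SD.negF_val]; decide +kernel)⟩
          · exact ⟨SD.simple_pos 3 (by decide), hall.2.2, Fin.ext (by rw [sigA_val, SD.negF_val]; decide +kernel)⟩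
        · intro x hx hxJ
          simp only [Finset.mem_insert, Finset.mem_singleton, not_or, Fin.ext_iff] at hxJ
          rw [sigA_val]
          exact (by decide +kernel : ∀ s < 24, 12 ≤ s → s ≠ 18 → s ≠ 13 → s ≠ 12 → 12 ≤ rfA s)
            x x.isLt hx hxJ.1 hxJ.2.1 hxJ.2.2
      have hL : SD.wperm (L ++ [nd 0, nd 2, nd 3]) = σ * sigA := by
        rw [SD.wperm_append]; simp [Sys.wperm, hσ, sigA, mul_assoc]
      have hinv : sigA * sigA = 1 := Equiv.ext fun s => Fin.ext (by
        rw [Equiv.Perm.mul_apply, sigA_val, sigA_val]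
        exact (by decide +kernel : ∀ s < 24, rfA (rfA s) = s) s s.isLt)
      obtain ⟨n, n2, hn, hp⟩ := ih _ (by omega) (L ++ [nd 0, nd 2, nd 3]) (le_of_eq (congrArg _ (congrArg _ hL)))
        (by rw [hL, ← mul_assoc, hc, mul_assoc, pP_sigA, mul_assoc])
      refine ⟨n * nA F, n2 * SG.nN F (gd 0), isRep_mul F hn (isRep_nA F), ?_⟩
      rw [map_mul, hp, hL, perm_nA, mul_assoc, hinv, mul_one]

end CfsgLib.Triality
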