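import Cfsg.Agent.Triality.Rho

/-!
The folded root elements, their images, and the action of the triality matrix on root elements.
-/

set_option autoImplicit false

namespace CfsgLib.Triality

open Cfsg.Lie CfsgLib.Chevalley
open scoped Matrix

/-- the checked datum of type D4 -/
noncomputable abbrev SD : Sys chevD4 := sysD4

/-- the checked datum of type G2 -/
noncomputable abbrev SG : Sys chevG2 := sysG2

variable (F : Type*) [Field F]

/-- conjugation by the triality matrix -/
noncomputable def cj : GL chevD4.Idx F →* GL chevD4.Idx F := (MulAut.conj (triP F)).toMonoidHom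

theorem cj_apply (g : GL chevD4.Idx F) : cj F g = triP F * g * (triP F)⁻¹ := rfl

theorem mem_cenP_iff_cj {g : GL chevD4.Idx F} : g ∈ cenP F ↔ cj F g = g := by
  rw [mem_cenP, cj_apply, mul_inv_eq_iff_eq_mul]

theorem cj_xG {r : ℕ} (hr : r < 24) (t : F) :
    cj F (SD.xG F r t) = SD.xG F (pR r) ((eR r : F) * t) := by
  rw [cj_apply, mul_inv_eq_iff_eq_mul]
  refine Units.ext ?_
  rw [Units.val_mul, Units.val_mul, triP_val]
  exact symT.symMat_conj F SD.wf hr t

/-- the folded root element -/
noncomputable def xF (k : ℕ) (t : F) : GL chevD4.Idx F :=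
  SD.wG F ((fibre k).map fun r => (r, (sg r : F) * t))

theorem mem_fibre {k r : ℕ} : r ∈ fibre k ↔ r < 24 ∧ lev r = k := by simp [fibre]

theorem xF_mem_group (k : ℕ) (t : F) : xF F k t ∈ chevD4.group F := by
  refine SD.wG_mem F fun e he => ?_
  obtain ⟨r, hr, rfl⟩ := List.mem_map.1 he
  exact (mem_fibre.1 hr).1

theorem xF_val (k : ℕ) (t : F) : (xF F k t : Matrix chevD4.Idx chevD4.Idx F) =
    chevD4.wordMat F ((foldW k).map fun e => (e.1, pev F t 1 e.2)) := by
  rw [xF, SD.wG_val, foldW, List.map_map]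
  simp [pev, Function.comp_def]

theorem cj_xF {k : ℕ} (hk : k < 12) (t : F) : cj F (xF F k t) = xF F k t := by
  refine Units.ext ?_
  have h := wordEq_sound (F := F) SD.wf (foldW_fixed k hk) t 1
  rw [xF_val, ← h]
  have e : cj F (xF F k t) = SD.wG F ((foldW' k).map fun e => (e.1, pev F t 1 e.2)) := by
    rw [xF, Sys.wG, map_list_prod, Sys.wG, foldW', List.map_map, List.map_map, List.map_map,
      List.map_map]
    congr 1
    refine List.map_congr_left fun r hr => ?_
    simp only [Function.comp_apply]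
    rw [cj_xG F (mem_fibre.1 hr).1]
    simp [pev, mul_assoc]
  rw [e, SD.wG_val]

theorem xF_mem_cenP {k : ℕ} (hk : k < 12) (t : F) : xF F k t ∈ cenP F :=
  (mem_cenP_iff_cj F).2 (cj_xF F hk t)

/-! ### the image of a folded root element -/

theorem wordMat_mulVec_vev (t u : F) (w : List (ℕ × List Mon)) (hw : ∀ e ∈ w, e.1 < chevD4.nroots)
    (v : List (ℕ × Mon)) :
    chevD4.wordMat F (w.map fun e => (e.1, pev F t u e.2)) *ᵥ vev chevD4 F t u v =
      vev chevD4 F t u (w.foldr (fun e v => normV (appRoot chevD4 e.1 e.2 v)) v) := by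
  induction w with
  | nil => simp [wordMat_nil]
  | cons e w ih =>
    rw [List.forall_mem_cons] at hw
    rw [List.map_cons, wordMat_cons, List.foldr_cons, vev_normV, ← vev_appRoot SD.wf hw.1,
      ← Matrix.mulVec_mulVec, ih hw.2]

theorem vev_embCol (t u : F) (c : ℕ) (x : chevD4.Idx) :
    vev chevD4 F t u (embCol c) x =
      if foldC (enc chevD4 x) = c then (sgnC (enc chevD4 x) : F) else 0 := by
  have hlt : enc chevD4 x < 28 := (by decide : ∀ x : chevD4.Idx, enc chevD4 x < 28) x
  set A := (List.range 28).filter fun y => foldC y == c with hA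
  have hnd : A.Nodup := List.nodup_range.filter _
  have e : vev chevD4 F t u (embCol c) x =
      (A.map fun y => if enc chevD4 x = y then (sgnC y : F) else 0).sum := by
    simp only [vev, embCol, ← hA, List.map_map, list_sum_apply]
    congr 1
    refine List.map_congr_left fun y _ => ?_
    simp [bv]
  rw [e, ← List.sum_toFinset _ hnd, Finset.sum_ite_eq]
  simp [hA, hlt]

theorem emb_bv (t u : F) (c : ℕ) :
    embM F *ᵥ bv chevG2 F c = vev chevD4 F t u (embCol c) := by
  funext x
  rw [vev_embCol]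
  obtain ⟨k, hk⟩ := foldC_eq x
  rw [Matrix.mulVec, dotProduct, Finset.sum_eq_single k]
  · rw [embM, Matrix.of_apply, if_pos hk, hk]
    by_cases h : enc chevG2 k = c
    · rw [bv_apply_eq h, if_pos h, mul_one]
    · rw [bv_apply_ne h, if_neg h, mul_zero]
  · intro z _ hz
    rw [embM, Matrix.of_apply, if_neg fun e => hz (enc_injective chevG2 (e.symm.trans hk)), zero_mul]
  · intro h
    exact absurd (Finset.mem_univ k) h

theorem emb_vev (t u : F) (L : List (ℕ × Mon)) :
    embM F *ᵥ vev chevG2 F t u L = vev chevD4 F t u (L.flatMap fun e =>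
      (embCol e.1).map fun z => (z.1, (z.2.1 * e.2.1, e.2.2.1, e.2.2.2))) := by
  induction L with
  | nil => simp [vev]
  | cons e L ih =>
    rw [vev_cons, Matrix.mulVec_add, ih, List.flatMap_cons, vev_append, Matrix.mulVec_smul,
      emb_bv F t u]
    congr 1
    simp only [vev, List.smul_sum, List.map_map]
    congr 1
    refine List.map_congr_left fun z hz => ?_
    obtain ⟨y, -, rfl⟩ := List.mem_map.1 hz
    simp only [Function.comp_apply, smul_smul, pow_zero, mul_one, Int.cast_mul]
    congr 1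
    ring

theorem xF_emb {k : ℕ} (hk : k < 12) (t : F) :
    (xF F k t : Matrix chevD4.Idx chevD4.Idx F) * embM F =
      embM F * (SG.xG F k t : Matrix chevG2.Idx chevG2.Idx F) := by
  ext x j
  have hlt : enc chevG2 j < 14 := (by decide : ∀ j : chevG2.Idx, enc chevG2 j < 14) j
  have hw : ∀ e ∈ foldW k, e.1 < chevD4.nroots := by
    intro e he
    obtain ⟨r, hr, rfl⟩ := List.mem_map.1 he
    exact (mem_fibre.1 hr).1
  have hb := foldB_all k hk _ hlt
  rw [foldB, beq_iff_eq] at hb
  have h1 : (xF F k t : Matrix chevD4.Idx chevD4.Idx F) *ᵥ (embM F *ᵥ bv chevG2 F (enc chevG2 j)) =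
      embM F *ᵥ ((SG.xG F k t : Matrix chevG2.Idx chevG2.Idx F) *ᵥ bv chevG2 F (enc chevG2 j)) := by
    rw [emb_bv F t 1, xF_val, wordMat_mulVec_vev F t 1 _ hw, SG.xG_val,
      ← vev_normV, hb, vev_normV, ← emb_vev]
    congr 1
    rw [← vev_evalCol SG.wf t 1 [(k, [(1, 1, 0)])] (by
        intro e he
        rw [List.mem_singleton.1 he]
        exact hk)]
    simp [ChevalleyDatum.wordMat, pev]
  have h2 := congrFun h1 x
  rw [bv_single, Matrix.mulVec_mulVec, Matrix.mulVec_mulVec, Matrix.mulVec_single,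
    Matrix.mulVec_single] at h2
  simpa using h2

/-- a folded root element, in the centralizer -/
noncomputable def xC (k : Fin 12) (t : F) : ↥(cenP F) := ⟨xF F k t, xF_mem_cenP F k.isLt t⟩

theorem rho_xC (k : Fin 12) (t : F) : rho F (xC F k t) = SG.xG F k t :=
  rho_eq_of F (xF_emb F k.isLt t)

theorem rho_of_xF {k : ℕ} (hk : k < 12) (t : F) (h : xF F k t ∈ cenP F) :
    rho F ⟨xF F k t, h⟩ = SG.xG F k t :=
  rho_xC F ⟨k, hk⟩ t

theorem mem_cj_uSub {P : Set ℕ} (hP : ∀ r ∈ P, r < 24 → pR r ∈ P) {g : GL chevD4.Idx F}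
    (hg : g ∈ uSub chevD4 F P) : cj F g ∈ uSub chevD4 F P := by
  refine (show uSub chevD4 F P ≤ (uSub chevD4 F P).comap (cj F) from
    SD.uSub_le F fun r hr h1 h2 t => ?_) hg
  have hr24 : r < 24 := h2
  rw [Subgroup.mem_comap, cj_xG F hr24]
  exact SD.xG_mem_uSub F (hP r hr hr24) ((pR_pos_iff r hr24).2 h1) (symT.p_lt r h2) _

theorem cj_posUnipotent {g : GL chevD4.Idx F} (hg : g ∈ chevD4.posUnipotent F) :
    cj F g ∈ chevD4.posUnipotent F := by
  rw [← uSub_univ] at hg ⊢
  exact mem_cj_uSub F (P := Set.univ) (fun _ _ _ => trivial) hg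

end CfsgLib.Triality
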